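import Cfsg.Agent.Lib.Helper11.Suz22880.Upper
import Cfsg.Agent.Lib.Helper11.CoxModel
import Cfsg.Agent.Lib.Helper11.Suz22880.M0

set_option autoImplicit false
set_option maxRecDepth 100000

namespace Cfsg.Agent.Lib.Helper11.Suz22880

open Cfsg.Spor Cfsg.Spor.Suz

set_option maxHeartbeats 0

noncomputable def ntl : List (List (ℕ × ℕ)) := [[], [(mk1_0, 16384), (mk1_1, 8192), (mk1_2, 4096), (mk1_3, 2048), (mk1_4, 1024), (mk1_5, 512), (mk1_6, 256), (mk1_7, 128), (mk1_8, 64), (mk1_9, 32), (mk1_10, 16), (mk1_11, 8), (mk1_12, 4), (mk1_13, 2), (mk1_14, 1), (mk1_15, 2), (mk1_16, 4), (mk1_17, 8), (mk1_18, 16), (mk1_19, 32), (mk1_20, 64), (mk1_21, 128), (mk1_22, 256), (mk1_23, 512), (mk1_24, 1024), (mk1_25, 2048), (mk1_26, 4096), (mk1_27, 8192), (mk1_28, 16384)], [(mk2_0, 16384), (mk2_1, 8192), (mk2_2, 4096), (mk2_3, 2048), (mk2_4, 1024), (mk2_5, 512), (mk2_6, 256), (mk2_7, 128), (mk2_8, 64), (mk2_9, 32), (mk2_10, 16), (mk2_11, 8), (mk2_12,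 4), (mk2_13, 2), (mk2_14, 1), (mk2_15, 2), (mk2_16, 4), (mk2_17, 8), (mk2_18, 16), (mk2_19, 32), (mk2_20, 64), (mk2_21, 128), (mk2_22, 256), (mk2_23, 512), (mk2_24, 1024), (mk2_25, 2048), (mk2_26, 4096), (mk2_27, 8192), (mk2_28, 16384)], [(mk3_0, 16384), (mk3_1, 8192), (mk3_2, 4096), (mk3_3, 2048), (mk3_4, 1024), (mk3_5, 512), (mk3_6, 256), (mk3_7, 128), (mk3_8, 64), (mk3_9, 32), (mk3_10, 16), (mk3_11, 8), (mk3_12, 4), (mk3_13, 2), (mk3_14, 1), (mk3_15, 2), (mk3_16, 4), (mk3_17, 8), (mk3_18, 16), (mk3_19, 32), (mk3_20, 64), (mk3_21, 128), (mk3_22, 256), (mk3_23, 512), (mk3_24, 1024), (mk3_25, 2048), (mk3_26, 4096), (mk3_27, 8192), (mk3_28, 16384)], [(mk4_0, 16384), (mk4_1, 8192), (mk4_2, 4096), (mk4_3, 2048), (mk4_4, 1024), (mk4_5, 512), (mk4_6, 256), (mk4_7, 128), (mk4_8, 64), (mk4_9, 32), (mk4_10, 16), (mk4_11, 8), (mk4_12, 4), (mk4_13, 2), (mk4_14, 1), (mk4_15, 2), (mk4_16, 4), (mk4_17, 8), (mk4_18, 16), (mk4_19, 32), (mk4_20,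 64), (mk4_21, 128), (mk4_22, 256), (mk4_23, 512), (mk4_24, 1024), (mk4_25, 2048), (mk4_26, 4096), (mk4_27, 8192), (mk4_28, 16384)], [(mk5_0, 16384), (mk5_1, 8192), (mk5_2, 4096), (mk5_3, 2048), (mk5_4, 1024), (mk5_5, 512), (mk5_6, 256), (mk5_7, 128), (mk5_8, 64), (mk5_9, 32), (mk5_10, 16), (mk5_11, 8), (mk5_12, 4), (mk5_13, 2), (mk5_14, 1), (mk5_15, 2), (mk5_16, 4), (mk5_17, 8), (mk5_18, 16), (mk5_19, 32), (mk5_20, 64), (mk5_21, 128), (mk5_22, 256), (mk5_23, 512), (mk5_24, 1024), (mk5_25, 2048), (mk5_26, 4096), (mk5_27, 8192), (mk5_28, 16384)], [(mk6_0, 16384), (mk6_1, 8192), (mk6_2, 4096), (mk6_3, 2048), (mk6_4, 1024), (mk6_5, 512), (mk6_6, 256), (mk6_7, 128), (mk6_8, 64), (mk6_9, 32), (mk6_10, 16), (mk6_11, 8), (mk6_12, 4), (mk6_13, 2), (mk6_14, 1), (mk6_15, 2), (mk6_16, 4), (mk6_17, 8), (mk6_18, 16), (mk6_19, 32), (mk6_20, 64), (mk6_21, 128), (mk6_22, 256), (mk6_23, 512), (mk6_24, 1024), (mk6_25, 2048), (mk6_26, 4096), (mk6_27,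 8192), (mk6_28, 16384)], [(mk7_0, 16384), (mk7_1, 8192), (mk7_2, 4096), (mk7_3, 2048), (mk7_4, 1024), (mk7_5, 512), (mk7_6, 256), (mk7_7, 128), (mk7_8, 64), (mk7_9, 32), (mk7_10, 16), (mk7_11, 8), (mk7_12, 4), (mk7_13, 2), (mk7_14, 1), (mk7_15, 2), (mk7_16, 4), (mk7_17, 8), (mk7_18, 16), (mk7_19, 32), (mk7_20, 64), (mk7_21, 128), (mk7_22, 256), (mk7_23, 512), (mk7_24, 1024), (mk7_25, 2048), (mk7_26, 4096), (mk7_27, 8192), (mk7_28, 16384)]]
noncomputable def INVm : ℕ := 247132686368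
def LTFm : List (FreeGroup Gen) := [1, a, b, c, d, e, f, g]
def hExps : List WExp := [(.l 1), (.l 2), (.l 3), (.l 4), (.l 6), (.l 7)]
def gExps : List WExp := [(.l 1), (.l 2), (.l 3), (.l 4), (.l 5), (.l 6), (.l 7)]

theorem netsOK : ntl.all (fun net => net.all (stOK (2 ^ (2 ^ 15)))) = true := by decide +kernel
theorem idOK : (baseWords edges code nodes INVm 7 extraE []).all (wordId (ntOf ntl) 15) = true := by
  decide +kernel
theorem hfix0 : fixChk (ntOf ntl) (hExps.map (fun e => e.letters INVm)) 0 1 = true := by decide +kernel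
theorem htr : growChk (ntOf ntl) (gExps.map (fun e => e.letters INVm)) 9 0 0 22880 = true := by
  decide +kernel
theorem og0 : growChk (ntOf ntl) (hExps.map (fun e => e.letters INVm)) 6 1 1 486 = true := by
  decide +kernel
theorem oi0 : fixChk (ntOf ntl) (hExps.map (fun e => e.letters INVm)) 1 486 = true := by decide +kernel
theorem og1 : growChk (ntOf ntl) (hExps.map (fun e => e.letters INVm)) 5 487 487 8505 = true := by
  decide +kernel
theorem oi1 : fixChk (ntOf ntl) (hExps.map (fun e => e.letters INVm)) 487 8505 = true := by decide +kernel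
theorem og2 : growChk (ntOf ntl) (hExps.map (fun e => e.letters INVm)) 6 8992 8992 13608 = true := by
  decide +kernel
theorem oi2 : fixChk (ntOf ntl) (hExps.map (fun e => e.letters INVm)) 8992 13608 = true := by decide +kernel
theorem og3 : growChk (ntOf ntl) (hExps.map (fun e => e.letters INVm)) 3 22600 22600 280 = true := by
  decide +kernel
theorem oi3 : fixChk (ntOf ntl) (hExps.map (fun e => e.letters INVm)) 22600 280 = true := by decide +kernel

theorem hwords : ∀ r ∈ baseWords edges code nodes INVm 7 extraE [],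
    (r.map fun l => netPerm (ntOf ntl l)).prod = 1 :=
  model_words edges code nodes INVm 7 extraE ntl 15 netsOK idOK
theorem hinvN : ∀ l, netPerm (ntOf ntl (invL INVm l)) = (netPerm (ntOf ntl l))⁻¹ :=
  model_inv edges code nodes INVm 7 extraE ntl hwords (by decide +kernel) rfl (by norm_num)
  (by decide +kernel) (by decide +kernel)
theorem hLTF : ∀ l, FreeGroup.lift (fun x => netPerm (ntOf ntl (code x))) (LTFm.getD l 1) =
      netPerm (ntOf ntl l) := by
  apply hLTF_of LTFm code 7 ntl rfl (by decide +kernel)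
  intro l hl
  interval_cases l
  · exact (map_one _).trans netPerm_nil.symm
  · exact FreeGroup.lift_apply_of
  · exact FreeGroup.lift_apply_of
  · exact FreeGroup.lift_apply_of
  · exact FreeGroup.lift_apply_of
  · exact FreeGroup.lift_apply_of
  · exact FreeGroup.lift_apply_of
  · exact FreeGroup.lift_apply_of
theorem hrels : ∀ r ∈ coxRelators edges ∪ {r | r ∈ extra},
    FreeGroup.lift (fun x => netPerm (ntOf ntl (code x))) r = 1 :=
  model_rels edges extra LTFm code nodes INVm 7 extraE ntl hwords hinvN (by decide)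
  (by
    intro r hr
    have : extraE.map (fun e => e.eval (fun l => LTFm.getD l 1)) = extra := rfl
    rw [← this] at hr
    obtain ⟨e, he, h⟩ := List.mem_map.1 hr
    exact ⟨e, he, h⟩) hLTF

/-- the permutation representation -/
noncomputable def psi : Cfsg.Spor.Suz →* Equiv.Perm ℕ :=
  PresentedGroup.toGroup (f := fun x => netPerm (ntOf ntl (code x))) hrels

theorem psi_eval (e : WExp) :
    psi (PresentedGroup.mk (coxRelators edges ∪ {r | r ∈ extra}) (e.eval (fun l => LTFm.getD l 1))) =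
      wordPerm (ntOf ntl) (e.letters INVm) :=
  lift_eval LTFm code INVm ntl hinvN hLTF e

theorem hS1 : ∀ s ∈ ({a, b, c, d, f, g} : Set (FreeGroup Gen)), ∃ ex ∈ hExps, ex.eval (fun n => LTFm.getD n 1) = s := by
  intro s hs
  simp only [Set.mem_insert_iff, Set.mem_singleton_iff] at hs
  rcases hs with rfl | rfl | rfl | rfl | rfl | rfl
  · exact ⟨(.l 1), by simp [hExps], rfl⟩
  · exact ⟨(.l 2), by simp [hExps], rfl⟩
  · exact ⟨(.l 3), by simp [hExps], rfl⟩
  · exact ⟨(.l 4), by simp [hExps], rfl⟩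
  · exact ⟨(.l 6), by simp [hExps], rfl⟩
  · exact ⟨(.l 7), by simp [hExps], rfl⟩

theorem hS2 : ∀ ex ∈ hExps, ex.eval (fun n => LTFm.getD n 1) ∈ ({a, b, c, d, f, g} : Set (FreeGroup Gen)) := by
  intro ex he
  simp only [hExps, List.mem_cons, List.mem_nil_iff, or_false] at he
  rcases he with rfl | rfl | rfl | rfl | rfl | rfl <;> simp [WExp.eval, LTFm]



end Cfsg.Agent.Lib.Helper11.Suz22880
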